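import Mathlib
import Cfsg.Agent.Lib.Helper2.BG.PartnerDefs

/-!
# Package COUNT of the B–G 14.7 project (helper2): the final counting contradiction
-/

set_option autoImplicit false

namespace Cfsg.Agent.Lib.Helper77.BG

open Cfsg

universe u

/-- arithmetic for one vertex: `3 t z + g ≥ 3 g c`. -/
theorem count_arith_one (t l s c z g : ℕ) (h1 : t * l = (s - 1) * g) (h2 : l * c = s * z)
    (h3 : 3 * c ≤ s) (hc : 1 ≤ c) : 3 * g * c ≤ 3 * t * z + g := by
  have hs : 1 ≤ s := by omega
  have hspos : 0 < s := by omega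
  have key : 3 * g * c * s ≤ (3 * t * z + g) * s := by
    have e1 : t * z * s = (s - 1) * g * c := by
      calc t * z * s = t * (s * z) := by ring
        _ = t * (l * c) := by rw [h2]
        _ = (t * l) * c := by ring
        _ = (s - 1) * g * c := by rw [h1]
    obtain ⟨s', rfl⟩ : ∃ s', s = s' + 1 := ⟨s - 1, by omega⟩
    simp only [Nat.add_sub_cancel] at e1
    have e2 : (3 * t * z + g) * (s' + 1) = 3 * (t * z * (s' + 1)) + g * (s' + 1) := by ring
    rw [e2, e1]
    have : g * (3 * c) ≤ g * (s' + 1) := Nat.mul_le_mul_left g h3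
    nlinarith [this]
  exact Nat.le_of_mul_le_mul_right key hspos

theorem lemCount : Cfsg.Agent.Lib.Helper2.BG47.LemCount.{u} := by
  intro G _ _ Z S T s l hS2 hSZ hT hl h3 hfus havoid hdisj
  classical
  have : Fintype G := Fintype.ofFinite G
  -- finset versions
  let ZF : Finset G := Finset.univ.filter (fun z => z ∈ Z)
  let CF : Subgroup G → Finset G := fun C => Finset.univ.filter (fun z => z ∈ C)
  let TF : Subgroup G → Finset G := fun C => Finset.univ.filter (fun z => z ∈ T C)
  let D : Finset G := Finset.univ.filter (fun z => z ∈ Z ∧ ∀ C ∈ S, z ∉ C)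
  let cl : Finset G := Finset.univ.filter (fun a => ∃ g : G, ∃ z ∈ D, a = g * z * g⁻¹)
  have hcardSub : ∀ H : Subgroup G, Nat.card H = (Finset.univ.filter (fun z => z ∈ H)).card := by
    intro H
    rw [Nat.card_eq_fintype_card]
    exact Fintype.card_of_subtype _ (by simp)
  have hZF : Nat.card Z = ZF.card := hcardSub Z
  have hCF : ∀ C : Subgroup G, Nat.card C = (CF C).card := fun C => hcardSub C
  have hTF : ∀ C : Subgroup G, (T C).ncard = (TF C).card := by
    intro C
    have : T C = ((TF C : Finset G) : Set G) := by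
      ext x; simp [TF]
    rw [this, Set.ncard_coe_finset]
  have hGc : Nat.card G = (Finset.univ : Finset G).card := by
    rw [Nat.card_eq_fintype_card, Finset.card_univ]
  have hDmem : ∀ z, z ∈ D ↔ z ∈ Z ∧ ∀ C ∈ S, z ∉ C := by
    intro z; simp [D]
  -- (i)
  have hi : Nat.card G * D.card ≤ Nat.card Z * cl.card := by
    let P : Finset (G × G) := Finset.univ ×ˢ D
    let f : G × G → G := fun p => p.1 * p.2 * p.1⁻¹
    have hPcard : P.card = Nat.card G * D.card := by
      rw [Finset.card_product, hGc]
    have himg : P.image f ⊆ cl := by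
      intro a ha
      rw [Finset.mem_image] at ha
      obtain ⟨p, hp, rfl⟩ := ha
      rw [Finset.mem_product] at hp
      simp only [cl, Finset.mem_filter, Finset.mem_univ, true_and]
      exact ⟨p.1, p.2, hp.2, rfl⟩
    have hfib : ∀ a ∈ P.image f, (P.filter fun x => f x = a).card ≤ Nat.card Z := by
      intro a ha
      rw [Finset.mem_image] at ha
      obtain ⟨p₀, hp₀, rfl⟩ := ha
      rw [Finset.mem_product] at hp₀
      rw [hZF]
      apply Finset.card_le_card_of_injOn (fun p => p₀.1⁻¹ * p.1)
      · intro p hp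
        have hp' := Finset.mem_filter.mp (Finset.mem_coe.mp hp)
        have hpP := Finset.mem_product.mp hp'.1
        have hpD := (hDmem p.2).mp hpP.2
        have hp0D := (hDmem p₀.2).mp hp₀.2
        have hconj : (p₀.1⁻¹ * p.1) * p.2 * (p₀.1⁻¹ * p.1)⁻¹ = p₀.2 := by
          have h1 : p.1 * p.2 * p.1⁻¹ = p₀.1 * p₀.2 * p₀.1⁻¹ := hp'.2
          calc (p₀.1⁻¹ * p.1) * p.2 * (p₀.1⁻¹ * p.1)⁻¹
              = p₀.1⁻¹ * (p.1 * p.2 * p.1⁻¹) * p₀.1 := by group
            _ = p₀.1⁻¹ * (p₀.1 * p₀.2 * p₀.1⁻¹) * p₀.1 := by rw [h1]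
            _ = p₀.2 := by group
        have := hfus p.2 hpD.1 hpD.2 (p₀.1⁻¹ * p.1) (by rw [hconj]; exact hp0D.1)
          (by rw [hconj]; exact hp0D.2)
        simpa [ZF] using this
      · intro p hp q hq hpq
        have hp' := Finset.mem_filter.mp (Finset.mem_coe.mp hp)
        have hq' := Finset.mem_filter.mp (Finset.mem_coe.mp hq)
        have h1 : p.1 = q.1 := mul_left_cancel hpq
        have h2 : p.1 * p.2 * p.1⁻¹ = q.1 * q.2 * q.1⁻¹ := hp'.2.trans hq'.2.symm
        rw [← h1] at h2
        have h3 : p.2 = q.2 := mul_left_cancel (mul_right_cancel h2)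
        exact Prod.ext h1 h3
    have := Finset.card_le_mul_card_image P (Nat.card Z) hfib
    calc Nat.card G * D.card = P.card := hPcard.symm
      _ ≤ Nat.card Z * (P.image f).card := this
      _ ≤ Nat.card Z * cl.card := Nat.mul_le_mul_left _ (Finset.card_le_card himg)
  -- (ii)
  have hii : Nat.card Z + S.card ≤ D.card + 1 + ∑ C ∈ S, Nat.card C := by
    have hsub : ZF ⊆ D ∪ ({1} ∪ S.biUnion (fun C => (CF C).erase 1)) := by
      intro z hz
      have hzZ : z ∈ Z := by simpa [ZF] using hz
      by_cases h1 : z = 1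
      · simp [h1]
      by_cases hzD : ∀ C ∈ S, z ∉ C
      · exact Finset.mem_union_left _ ((hDmem z).mpr ⟨hzZ, hzD⟩)
      · push Not at hzD
        obtain ⟨C, hC, hzC⟩ := hzD
        apply Finset.mem_union_right
        apply Finset.mem_union_right
        rw [Finset.mem_biUnion]
        exact ⟨C, hC, Finset.mem_erase.mpr ⟨h1, by simpa [CF] using hzC⟩⟩
    have h1 : ZF.card ≤ D.card + (1 + ∑ C ∈ S, ((CF C).erase 1).card) := by
      calc ZF.card ≤ (D ∪ ({1} ∪ S.biUnion (fun C => (CF C).erase 1))).card :=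
            Finset.card_le_card hsub
        _ ≤ D.card + (({1} : Finset G) ∪ S.biUnion (fun C => (CF C).erase 1)).card :=
            Finset.card_union_le _ _
        _ ≤ D.card + (({1} : Finset G).card + (S.biUnion (fun C => (CF C).erase 1)).card) :=
            Nat.add_le_add_left (Finset.card_union_le _ _) _
        _ ≤ D.card + (1 + ∑ C ∈ S, ((CF C).erase 1).card) := by
            gcongr
            · simp
            · exact Finset.card_biUnion_le
    have h2 : ∑ C ∈ S, ((CF C).erase 1).card + S.card = ∑ C ∈ S, Nat.card C := by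
      rw [Finset.card_eq_sum_ones, ← Finset.sum_add_distrib]
      apply Finset.sum_congr rfl
      intro C _
      have h1C : (1 : G) ∈ CF C := by simp [CF]
      rw [Finset.card_erase_of_mem h1C, hCF C]
      have : 0 < (CF C).card := Finset.card_pos.mpr ⟨1, h1C⟩
      omega
    rw [hZF]
    omega
  -- (iii)
  have hiii : cl.card + ∑ C ∈ S, (TF C).card ≤ Nat.card G := by
    have hpd : (S : Set (Subgroup G)).PairwiseDisjoint TF := by
      intro C hC C' hC' hne
      have := hdisj C hC C' hC' hne
      rw [Function.onFun, Finset.disjoint_left]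
      intro x hx hx'
      have hx1 : x ∈ T C := by simpa [TF] using hx
      have hx2 : x ∈ T C' := by simpa [TF] using hx'
      exact Set.disjoint_left.mp this hx1 hx2
    have hcl : Disjoint cl (S.biUnion TF) := by
      rw [Finset.disjoint_left]
      intro a ha ha'
      rw [Finset.mem_biUnion] at ha'
      obtain ⟨C, hC, haC⟩ := ha'
      have haT : a ∈ T C := by simpa [TF] using haC
      simp only [cl, Finset.mem_filter, Finset.mem_univ, true_and] at ha
      obtain ⟨g, z, hz, rfl⟩ := ha
      have hzD := (hDmem z).mp hz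
      exact havoid C hC z hzD.1 hzD.2 g haT
    calc cl.card + ∑ C ∈ S, (TF C).card = cl.card + (S.biUnion TF).card := by
          rw [Finset.card_biUnion hpd]
      _ = (cl ∪ S.biUnion TF).card := (Finset.card_union_of_disjoint hcl).symm
      _ ≤ (Finset.univ : Finset G).card := Finset.card_le_card (Finset.subset_univ _)
      _ = Nat.card G := hGc.symm
  -- (iv)
  have hiv : 3 * Nat.card G * ∑ C ∈ S, Nat.card C ≤
      3 * Nat.card Z * ∑ C ∈ S, (TF C).card + S.card * Nat.card G := by
    have hone : ∀ C ∈ S, 3 * Nat.card G * Nat.card C ≤ 3 * (TF C).card * Nat.card Z + Nat.card G := by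
      intro C hC
      have hc : 1 ≤ Nat.card C := Nat.one_le_iff_ne_zero.mpr Nat.card_pos.ne'
      exact count_arith_one (TF C).card (l C) (s C) (Nat.card C) (Nat.card Z) (Nat.card G)
        (by rw [← hTF C]; exact hT C hC) (hl C hC) (h3 C hC) hc
    calc 3 * Nat.card G * ∑ C ∈ S, Nat.card C = ∑ C ∈ S, 3 * Nat.card G * Nat.card C := by
          rw [Finset.mul_sum]
      _ ≤ ∑ C ∈ S, (3 * (TF C).card * Nat.card Z + Nat.card G) := Finset.sum_le_sum hone
      _ = 3 * Nat.card Z * ∑ C ∈ S, (TF C).card + S.card * Nat.card G := by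
          rw [Finset.sum_add_distrib, Finset.mul_sum, Finset.sum_const, smul_eq_mul]
          congr 1
          apply Finset.sum_congr rfl
          intro C _; ring
  -- final arithmetic
  have hg : 1 ≤ Nat.card G := Nat.one_le_iff_ne_zero.mpr Nat.card_pos.ne'
  have hz : 1 ≤ Nat.card Z := Nat.one_le_iff_ne_zero.mpr Nat.card_pos.ne'
  generalize Nat.card G = g at *
  generalize Nat.card Z = z at *
  generalize D.card = d at *
  generalize cl.card = k at *
  generalize S.card = m at *
  generalize ∑ C ∈ S, Nat.card C = sc at *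
  generalize ∑ C ∈ S, (TF C).card = st at *
  -- hi : g*d ≤ z*k ; hii : z + m ≤ d + 1 + sc ; hiii : k + st ≤ g ; hiv : 3 g sc ≤ 3 z st + m g
  have e1 : 3 * z * (k + st) ≤ 3 * z * g := Nat.mul_le_mul_left _ hiii
  have e2 : 3 * g * (z + m) ≤ 3 * g * (d + 1 + sc) := Nat.mul_le_mul_left _ hii
  have e3 : 2 * g ≤ m * g := Nat.mul_le_mul_right _ hS2
  nlinarith [e1, e2, e3, hi, hiv]

end Cfsg.Agent.Lib.Helper77.BG
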