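import Mathlib
import Cfsg.Agent.Lib.Helper2.BG.PartnerDefs
import Cfsg.Agent.Lib.Helper23.Compl
import Cfsg.Agent.Lib.Helper23.TypeP
import Cfsg.Agent.Lib.Helper67.BG.Basics
import Cfsg.Agent.Lib.Helper76.BG.PolyTilde

/-!
# Package DT of the B–G 14.7 project (helper2)

No conjugate of an element of `Z` outside `C_{L_σ}(KL)` lies in the tilde-set of `L`.
Also reusable facts about a `Z`-good pair `(L, KL)`:
`good_coprime`, `good_mem_kstar` (the `σ(L)`-elements of `Z` lie in `K*`),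
`good_mem_of_conj_mem` (`K*` is only fused inside `L`, from S1431),
`good_centralizer_le` (`C_G(a) ≤ L` for every conjugate `a ∈ L` of a non-identity element of `K*`).
-/

set_option autoImplicit false

namespace Cfsg.Agent.Lib.Helper77.BG

open Cfsg Cfsg.Agent.Lib.Helper2.BG47

universe u

variable {G : Type u} [Group G]

theorem pow_card_eq_one_of_mem [Finite G] {H : Subgroup G} {x : G} (hx : x ∈ H) :
    x ^ Nat.card H = 1 := by
  exact orderOf_dvd_iff_pow_eq_one.mp (Subgroup.orderOf_dvd_natCard H hx)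

/-- `|KL|` and `|L_σ|` are coprime. -/
theorem good_coprime [Finite G] {Z L KL : Subgroup G} (hgood : Good Z L KL) :
    (Nat.card KL).Coprime (Nat.card (sigmaCore L)) := by
  obtain ⟨_, hK, _, _⟩ := hgood
  apply Nat.coprime_of_dvd
  intro p hp hpK hpS
  have h1 := hK.2.1 p hp hpK
  have h2 := Cfsg.Agent.Lib.Helper67.BG.sigmaCore_isPi L p hp hpS
  obtain ⟨_, _, hns, _⟩ := h1
  exact hns h2

/-- A `σ(L)`-element of `Z` lies in `K* = C_{L_σ}(KL)`. -/
theorem good_mem_kstar [Finite G] {Z L KL : Subgroup G} (hgood : Good Z L KL) {w : G} (hw : w ∈ Z)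
    (hpow : w ^ Nat.card (sigmaCore L) = 1) : w ∈ kstar L KL := by
  have hcop := good_coprime hgood
  obtain ⟨_, hK, _, hZ⟩ := hgood
  rw [← hZ] at hw
  have hcomm : ∀ a ∈ KL, ∀ b ∈ kstar L KL, a * b = b * a := by
    intro a ha b hb
    exact (Subgroup.mem_centralizer_iff.mp (Subgroup.mem_inf.mp hb).2) a ha
  obtain ⟨k, hk, c, hc, rfl⟩ :=
    Cfsg.Agent.Lib.Helper23.mem_sup_of_commute KL (kstar L KL) hcomm hw
  have hcσ : c ∈ sigmaCore L := (Subgroup.mem_inf.mp hc).1
  have hcn : c ^ Nat.card (sigmaCore L) = 1 := pow_card_eq_one_of_mem hcσ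
  have hkn : k ^ Nat.card (sigmaCore L) = 1 := by
    rw [(show Commute k c from hcomm k hk c hc).mul_pow, hcn, mul_one] at hpow
    exact hpow
  have hkK : k ^ Nat.card KL = 1 := pow_card_eq_one_of_mem hk
  have hgcd : k ^ (Nat.card KL).gcd (Nat.card (sigmaCore L)) = 1 := pow_gcd_eq_one.mpr ⟨hkK, hkn⟩
  rw [Nat.Coprime.gcd_eq_one hcop, pow_one] at hgcd
  rw [hgcd, one_mul]
  exact hc

/-- `K*` is only fused inside `L` (S1431(a)). -/
theorem good_mem_of_conj_mem [Finite G] (hG : IsMinSimpleOddOrder G)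
    (h1431 : type_of% (@Cfsg.CfsgFrozen.S1431 G _ _ hG)) {Z L KL : Subgroup G}
    (hgood : Good Z L KL) {w : G} (hw : w ∈ kstar L KL) (hw1 : w ≠ 1) {h : G}
    (hh : h * w * h⁻¹ ∈ L) : h ∈ L := by
  obtain ⟨hL, hK, hK1, hZ⟩ := hgood
  by_contra hnot
  have hinv : h⁻¹ ∉ L := fun hc => hnot (by simpa using L.inv_mem hc)
  have hbot := (h1431 L hL KL hK hK1).1 h⁻¹ hinv
  have hmem : w ∈ (sigmaCore L ⊓ Subgroup.centralizer (KL : Set G)) ⊓
      L.map (MulAut.conj h⁻¹).toMonoidHom := by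
    refine Subgroup.mem_inf.mpr ⟨hw, ?_⟩
    refine ⟨h * w * h⁻¹, hh, ?_⟩
    simp only [MulEquiv.toMonoidHom_eq_coe, MonoidHom.coe_coe, MulAut.conj_apply]
    group
  rw [hbot] at hmem
  exact hw1 (Subgroup.mem_bot.mp hmem)

/-- If `a ∈ L` is conjugate to a non-identity element `w` of `K*` then `C_G(a) ≤ L`. -/
theorem good_centralizer_le [Finite G] (hG : IsMinSimpleOddOrder G)
    (h1431 : type_of% (@Cfsg.CfsgFrozen.S1431 G _ _ hG)) {Z L KL : Subgroup G}
    (hgood : Good Z L KL) {w : G} (hw : w ∈ kstar L KL) (hw1 : w ≠ 1) {h a : G}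
    (hwconj : h * w * h⁻¹ = a) (haL : a ∈ L) :
    h ∈ L ∧ Subgroup.centralizer ({a} : Set G) ≤ L := by
  have hhL : h ∈ L := good_mem_of_conj_mem hG h1431 hgood hw hw1 (by rw [hwconj]; exact haL)
  refine ⟨hhL, ?_⟩
  intro t ht
  have hta : a * t = t * a := Subgroup.mem_centralizer_iff.mp ht a (Set.mem_singleton a)
  have hg' : (h⁻¹ * t * h) * w * (h⁻¹ * t * h)⁻¹ ∈ L := by
    have : (h⁻¹ * t * h) * w * (h⁻¹ * t * h)⁻¹ = w := by
      calc (h⁻¹ * t * h) * w * (h⁻¹ * t * h)⁻¹
          = h⁻¹ * (t * (h * w * h⁻¹) * t⁻¹) * h := by group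
        _ = h⁻¹ * (t * a * t⁻¹) * h := by rw [hwconj]
        _ = h⁻¹ * a * h := by rw [← hta]; group
        _ = h⁻¹ * (h * w * h⁻¹) * h := by rw [hwconj]
        _ = w := by group
    rw [this]
    exact Cfsg.Agent.Lib.Helper67.BG.sigmaCore_le L (Subgroup.mem_inf.mp hw).1
  have hmem := good_mem_of_conj_mem hG h1431 hgood hw hw1 hg'
  have ht' : t = h * (h⁻¹ * t * h) * h⁻¹ := by group
  rw [ht']
  exact L.mul_mem (L.mul_mem hhL hmem) (L.inv_mem hhL)

theorem lemDT : Cfsg.Agent.Lib.Helper2.BG47.LemDT.{u} := by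
  intro G _ _ hG h1350 h1375 _h1430 h1431 Z L KL hgood z hzZ hzK g hmem
  obtain ⟨a, ⟨haσ, ha1⟩, r, hr, y, hy⟩ := hmem
  have ha1' : a ≠ 1 := by simpa using ha1
  have hL := hgood.1
  have hconj : (y⁻¹ * g) * z * (y⁻¹ * g)⁻¹ = a * r := by
    calc y⁻¹ * g * z * (y⁻¹ * g)⁻¹ = y⁻¹ * (g * z * g⁻¹) * y := by group
      _ = y⁻¹ * (y * (a * r) * y⁻¹) * y := by rw [hy]
      _ = a * r := by group
  generalize y⁻¹ * g = h at hconj
  have haL : a ∈ L := Cfsg.Agent.Lib.Helper67.BG.sigmaCore_le L haσ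
  have hrc : r ∈ Subgroup.centralizer ({a} : Set G) :=
    Cfsg.Agent.Lib.Helper76.BG.supportR_le_centralizer L a hr
  have hcomm : Commute a r := Subgroup.mem_centralizer_iff.mp hrc a (Set.mem_singleton a)
  -- Step 1: a is a power of a * r
  have hexp : ∃ e : ℕ, (a * r) ^ e = a := by
    by_cases hc : Subgroup.centralizer ({a} : Set G) ≤ L
    · have hbot := Cfsg.Agent.Lib.Helper76.BG.supportR_eq_bot_of_le hc
      rw [hbot] at hr
      rw [Subgroup.mem_bot.mp hr]
      exact ⟨1, by simp⟩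
    · obtain ⟨N, ⟨hN, haN⟩, huniq, hσF, _, _, hcompl, _⟩ := h1375 L hL a haσ ha1' hc
      have hrN : r ∈ sigmaCore N := by
        have hcond : ¬ Subgroup.centralizer ({a} : Set G) ≤ L ∧
            ∃! L' : Subgroup G, IsCoatom L' ∧ Subgroup.centralizer ({a} : Set G) ≤ L' :=
          ⟨hc, N, ⟨hN, haN⟩, fun L' hL' => huniq L' hL'.1 hL'.2⟩
        have hsup : supportR L a = fittingHallOf (Classical.choose hcond.2.exists) ⊓
            Subgroup.centralizer ({a} : Set G) := by
          unfold supportR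
          rw [dif_pos hcond]
        have hch := Classical.choose_spec hcond.2.exists
        have hchN : Classical.choose hcond.2.exists = N := huniq _ hch.1 hch.2
        rw [hsup, hchN, ← hσF] at hr
        exact (Subgroup.mem_inf.mp hr).1
      have haN' : a ∈ L ⊓ N :=
        Subgroup.mem_inf.mpr ⟨haL, haN (Subgroup.mem_centralizer_iff.mpr (by simp))⟩
      have hHall := (h1350 N hN).1
      have hcard := Cfsg.Agent.Lib.Helper23.card_of_isComplIn hcompl
      have hrel := Cfsg.Agent.Lib.Helper23.card_mul_relIndex hHall.1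
      have hpos : 0 < Nat.card (sigmaCore N) := Nat.card_pos
      have hAeq : Nat.card (L ⊓ N : Subgroup G) = (sigmaCore N).relIndex N := by
        have : Nat.card (sigmaCore N) * Nat.card (L ⊓ N : Subgroup G) =
            Nat.card (sigmaCore N) * (sigmaCore N).relIndex N := by
          rw [hrel, hcard, mul_comm]
        exact Nat.eq_of_mul_eq_mul_left hpos this
      have hcop : (Nat.card (L ⊓ N : Subgroup G)).Coprime (Nat.card (sigmaCore N)) := by
        rw [hAeq]
        apply Nat.coprime_of_dvd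
        intro p hp hp1 hp2
        exact hHall.2.2 p hp (hHall.2.1 p hp hp2) hp1
      have hoa : orderOf a ∣ Nat.card (L ⊓ N : Subgroup G) :=
        Subgroup.orderOf_dvd_natCard _ haN'
      have hor : orderOf r ∣ Nat.card (sigmaCore N) := Subgroup.orderOf_dvd_natCard _ hrN
      have hcop' : (orderOf a).Coprime (orderOf r) :=
        Nat.Coprime.coprime_dvd_left hoa (Nat.Coprime.coprime_dvd_right hor hcop)
      obtain ⟨e, he1, he2⟩ := Nat.chineseRemainder hcop' 1 0
      refine ⟨e, ?_⟩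
      rw [hcomm.mul_pow]
      have h1 : a ^ e = a := by
        have := (pow_eq_pow_iff_modEq (x := a)).mpr he1
        simpa using this
      have h2 : r ^ e = 1 := by
        have := (pow_eq_pow_iff_modEq (x := r)).mpr he2
        simpa using this
      rw [h1, h2, mul_one]
  obtain ⟨e, he⟩ := hexp
  have hwZ : z ^ e ∈ Z := Z.pow_mem hzZ e
  have hwconj : h * z ^ e * h⁻¹ = a := by
    rw [← conj_pow, hconj, he]
  have hw1 : z ^ e ≠ 1 := by
    intro h0
    rw [h0] at hwconj
    apply ha1'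
    rw [← hwconj]
    group
  have hpowσ : ∀ (v b : G), b ∈ sigmaCore L → h * v * h⁻¹ = b →
      v ^ Nat.card (sigmaCore L) = 1 := by
    intro v b hb hv
    have h1 : (h * v * h⁻¹) ^ Nat.card (sigmaCore L) = 1 := by
      rw [hv]; exact pow_card_eq_one_of_mem hb
    rw [conj_pow] at h1
    have h2 : v ^ Nat.card (sigmaCore L) =
        h⁻¹ * (h * v ^ Nat.card (sigmaCore L) * h⁻¹) * h := by group
    rw [h2, h1]
    group
  have hwK : z ^ e ∈ kstar L KL := good_mem_kstar hgood hwZ (hpowσ _ a haσ hwconj)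
  have hCL := (good_centralizer_le hG h1431 hgood hwK hw1 hwconj haL).2
  have hr1 : r = 1 := by
    have hbot := Cfsg.Agent.Lib.Helper76.BG.supportR_eq_bot_of_le hCL
    rw [hbot] at hr
    exact Subgroup.mem_bot.mp hr
  rw [hr1, mul_one] at hconj
  exact hzK (good_mem_kstar hgood hzZ (hpowσ z a haσ hconj))

end Cfsg.Agent.Lib.Helper77.BG
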